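import Cfsg.Prelude.Def_OddOrderLocal
import Mathlib

/-!
Rung FR of helper2's ladder BG76 (S1376).
-/

set_option autoImplicit false

namespace Cfsg.Agent.Lib.Helper40.BG76

variable {G : Type*} [Group G] [Finite G]

open Subgroup

theorem isFrobeniusComplement_of_free {M E H : Subgroup G} (hc : Cfsg.IsComplIn E H M)
    (hn : M ≤ normalizer (H : Set G)) (hE1 : E ≠ ⊥) (hH1 : H ≠ ⊥)
    (hfree : ∀ e ∈ E, e ≠ 1 → ∀ y ∈ H, e * y = y * e → y = 1) :
    Cfsg.IsFrobeniusComplement (E.subgroupOf M) := by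
  obtain ⟨hEM, hHM, hEH, hdec⟩ := hc
  refine ⟨?_, ?_, ?_⟩
  · intro h
    apply hE1
    rw [eq_bot_iff]
    intro e he
    have h1 : (⟨e, hEM he⟩ : ↥M) ∈ E.subgroupOf M := mem_subgroupOf.mpr he
    rw [h, mem_bot] at h1
    rw [mem_bot]
    exact congrArg Subtype.val h1
  · intro h
    apply hH1
    rw [eq_bot_iff]
    intro y hy
    have h1 : (⟨y, hHM hy⟩ : ↥M) ∈ E.subgroupOf M := by rw [h]; exact mem_top _
    rw [← hEH]
    exact mem_inf.mpr ⟨mem_subgroupOf.mp h1, hy⟩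
  · intro g hg
    rw [eq_bot_iff]
    intro w hw
    obtain ⟨hw1, hw2⟩ := mem_inf.mp hw
    rw [mem_bot]
    obtain ⟨e, he, hew⟩ := Subgroup.mem_pointwise_smul_iff_inv_smul_mem.mp hw2 |> fun h =>
      (⟨_, h, rfl⟩ : ∃ e, e ∈ E.subgroupOf M ∧ e = (MulAut.conj g)⁻¹ • w)
    have he' : (e : G) ∈ E := mem_subgroupOf.mp he
    have hwE : (w : G) ∈ E := mem_subgroupOf.mp hw1
    have hew' : (e : G) = (g : G)⁻¹ * (w : G) * (g : G) := by
      rw [hew]
      simp [MulAut.smul_def, MulAut.conj_inv_apply]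
    obtain ⟨a, ha, b, hb, hgab⟩ := hdec (g : G) g.2
    have hb1 : b ≠ 1 := by
      intro hb1
      apply hg
      rw [mem_subgroupOf, hgab, hb1, mul_one]
      exact ha
    -- e' = a⁻¹ w a = b e b⁻¹
    have h1 : a⁻¹ * (w : G) * a = b * (e : G) * b⁻¹ := by
      rw [hew', hgab]; group
    have h2 : a⁻¹ * (w : G) * a ∈ E := E.mul_mem (E.mul_mem (E.inv_mem ha) hwE) ha
    have h3 : b * (e : G) * b⁻¹ * (e : G)⁻¹ ∈ E := by
      rw [← h1]; exact E.mul_mem h2 (E.inv_mem he')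
    have h4 : b * (e : G) * b⁻¹ * (e : G)⁻¹ ∈ H := by
      have h5 : (e : G) * b⁻¹ * (e : G)⁻¹ ∈ H :=
        (mem_normalizer_iff.mp (hn (hEM he')) b⁻¹).mp (H.inv_mem hb)
      have : b * (e : G) * b⁻¹ * (e : G)⁻¹ = b * ((e : G) * b⁻¹ * (e : G)⁻¹) := by group
      rw [this]
      exact H.mul_mem hb h5
    have h6 : b * (e : G) * b⁻¹ * (e : G)⁻¹ = 1 := by
      have : b * (e : G) * b⁻¹ * (e : G)⁻¹ ∈ E ⊓ H := mem_inf.mpr ⟨h3, h4⟩
      rwa [hEH, mem_bot] at this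
    have h7 : (e : G) * b = b * (e : G) := by
      have : b * (e : G) = (b * (e : G) * b⁻¹ * (e : G)⁻¹) * ((e : G) * b) := by group
      rw [this, h6, one_mul]
    have h8 : (e : G) = 1 := by
      by_contra hne
      exact hb1 (hfree _ he' hne b hb h7)
    apply Subtype.ext
    have : (w : G) = (g : G) * (e : G) * (g : G)⁻¹ := by rw [hew']; group
    rw [this, h8]
    simp

end Cfsg.Agent.Lib.Helper40.BG76
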