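import Mathlib
import Cfsg.Agent.Lib.Helper29.PConstr
import Cfsg.Agent.Lib.Helper27.LBalance3
import Cfsg.Agent.Lib.Helper27.SolvBalance
import Cfsg.Agent.Lib.Helper27.CPC
import Cfsg.Agent.Lib.Helper80.PSolv
import Cfsg.Agent.Lib.Helper28.Rel

set_option autoImplicit false

namespace Cfsg.Agent.Lib.Helper40.BU

open Subgroup
open Cfsg.Agent.Lib.Helper28 (opIn opPrimeIn fitIn)

universe u

/-- solvable balance in a type. -/
theorem bal_type {Y : Type u} [Group Y] [Finite Y] (hY : Group.IsSolvable Y) {p : ℕ}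
    [Fact p.Prime] (P D : Subgroup Y) (hP : IsPGroup p P) (hDP : D ≤ centralizer (P : Set Y))
    (hD : (Nat.card D).Coprime p) (hn : centralizer (P : Set Y) ≤ normalizer (D : Set Y)) :
    D ≤ Cfsg.pPrimeCore p Y := by
  have hc : Cfsg.Agent.Lib.Helper37.CharP p (Y ⧸ Cfsg.pPrimeCore p Y) :=
    Cfsg.Agent.Lib.Helper27.centralizer_pCore_le_of_solvable p inferInstance
      Cfsg.Agent.Lib.Helper80.pPrimeCore_quotient_eq_bot
  have h1 : D ≤ (Cfsg.pPrimeCore p ↥(centralizer (P : Set Y))).map (centralizer (P : Set Y)).subtype :=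
    Cfsg.Agent.Lib.Helper27.le_map_pPrimeCore hDP hn
      ((Cfsg.Agent.Lib.Helper28.coprime_iff_not_dvd _).mp hD)
  have h2 := Cfsg.Agent.Lib.Helper27.map_pPrimeCore_centralizer_le p P
  have h3 := Cfsg.Agent.Lib.Helper29.core_normalizer_eq hc P hP
  exact ((h1.trans h2).trans h3.le).trans inf_le_left

variable {G : Type u} [Group G] [Finite G]

/-- [BAL] solvable balance, relative form: `O_{p'}(C_X(P)) ≤ O_{p'}(X)`. -/
theorem bal {p : ℕ} [Fact p.Prime] {X P D : Subgroup G} (hX : Group.IsSolvable X) (hPX : P ≤ X)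
    (hP : IsPGroup p P) (hDX : D ≤ X) (hDP : D ≤ centralizer (P : Set G))
    (hD : (Nat.card D).Coprime p)
    (hn : X ⊓ centralizer (P : Set G) ≤ normalizer (D : Set G)) : D ≤ opPrimeIn p X := by
  have key := bal_type hX (P.subgroupOf X) (D.subgroupOf X)
    (hP.of_equiv (subgroupOfEquivOfLe hPX).symm) ?_ ?_ ?_
  · exact Cfsg.Agent.Lib.Helper28.le_map_subtype_of_subgroupOf_le hDX key
  · intro x hx
    rw [mem_centralizer_iff]
    intro y hy
    have h1 := mem_centralizer_iff.mp (hDP (mem_subgroupOf.mp hx)) (y : G) (mem_subgroupOf.mp hy)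
    exact Subtype.ext h1
  · rwa [Nat.card_congr (subgroupOfEquivOfLe hDX).toEquiv]
  · intro x hx
    have hxc : (x : G) ∈ centralizer (P : Set G) := by
      rw [mem_centralizer_iff]
      intro y hy
      have h1 := mem_centralizer_iff.mp hx ⟨y, hPX hy⟩ (mem_subgroupOf.mpr hy)
      exact congrArg Subtype.val h1
    have h2 := hn ⟨x.2, hxc⟩
    rw [mem_normalizer_iff] at h2 ⊢
    intro y
    exact h2 (y : G)

end Cfsg.Agent.Lib.Helper40.BU
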