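import Mathlib
import Cfsg.Prelude.Def_OddOrderLocal
import Cfsg.Agent.Lib.Helper1.Coprime3
import Cfsg.Agent.Lib.Helper30.PiCore

set_option autoImplicit false

namespace Cfsg.Agent.Lib.Helper40.BU

open Subgroup

variable {G : Type*} [Group G] [Finite G]

/-- [COP] the coprime-action end game. -/
theorem cop {R M K : Subgroup G} {q : ℕ} [hqp : Fact q.Prime] (hKR : K ≤ R)
    (hMK : M ≤ normalizer (K : Set G)) (hcop : (Nat.card M).Coprime (Nat.card K))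
    (hK : Group.IsSolvable K) (hfix : K ⊓ centralizer (M : Set G) = ⊥)
    (hall : ∀ Q ∈ Cfsg.invSubgroups R M {q}, Q ≤ K) :
    ∃! Q : Subgroup G, Q ∈ Cfsg.maxInvSubgroups R M {q} ∧
      (∀ Q' : Subgroup G, Q' ∈ Cfsg.maxInvSubgroups R M {q} → Q' ≤ K ∧ ¬ q ∣ Q'.relIndex K) := by
  obtain ⟨S, hS, hMS⟩ :=
    Cfsg.Agent.Lib.Helper1.coprime_exists_invariant_sylow M K hMK hcop (Or.inr hK) q
  have hle : ∀ Q ∈ Cfsg.invSubgroups R M {q}, Q ≤ S := by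
    intro Q hQ
    have hQK := hall Q hQ
    obtain ⟨hQR, hQq, hMQ⟩ := hQ
    obtain ⟨T, hT, hQT, hMT⟩ := Cfsg.Agent.Lib.Helper1.coprime_invariant_psubgroup_le_sylow M K hMK
      hcop (Or.inr hK) q Q hQK (Cfsg.Agent.Lib.Helper30.isPGroup_of_piNat_singleton hQq) hMQ
    obtain ⟨c, hc, hcT⟩ := Cfsg.Agent.Lib.Helper1.coprime_invariant_sylow_conj M K hMK hcop
      (Or.inr hK) q T S hT hS hMT hMS
    rw [hfix, mem_bot] at hc
    subst hc
    rw [map_one, one_smul] at hcT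
    rw [← hcT]
    exact hQT
  have hSinv : S ∈ Cfsg.invSubgroups R M {q} := by
    refine ⟨hS.1.trans hKR, ?_, hMS⟩
    intro p hp hpS
    obtain ⟨n, hn⟩ := IsPGroup.iff_card.mp hS.2.1
    rw [hn] at hpS
    exact (Nat.prime_dvd_prime_iff_eq hp hqp.out).mp (hp.dvd_of_dvd_pow hpS)
  have hSmax : S ∈ Cfsg.maxInvSubgroups R M {q} :=
    ⟨hSinv, fun T hT hST => le_antisymm (hle T hT) hST⟩
  have huniq : ∀ Q' ∈ Cfsg.maxInvSubgroups R M {q}, Q' = S :=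
    fun Q' hQ' => (hQ'.2 S hSinv (hle Q' hQ'.1)).symm
  refine ⟨S, ⟨hSmax, fun Q' hQ' => ?_⟩, fun Q hQ => huniq Q hQ.1⟩
  rw [huniq Q' hQ']
  exact ⟨hS.1, hS.2.2⟩

end Cfsg.Agent.Lib.Helper40.BU
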