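import Mathlib
import Cfsg.Prelude.Def_OddOrderLocal
import Cfsg.Prelude.Def_CaseTheorems
import Cfsg.Agent.Lib.Helper28.BigSub
import Cfsg.Agent.Lib.Helper1.Coprime3
import Cfsg.Agent.Lib.Helper11.AxB
import Cfsg.Agent.Lib.Helper30.Transitivity3
import Cfsg.Agent.Lib.Helper27.Signalizer
import Cfsg.Agent.Lib.Helper52.BUXR
import Cfsg.Agent.Lib.Helper52.BUCEN
import Cfsg.Agent.Lib.Helper52.BULOC
import Cfsg.Agent.Lib.Helper40.BUBal
import Cfsg.Agent.Lib.Helper40.BUCop

set_option autoImplicit false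

namespace Cfsg.Agent.Lib.Helper40.BU

open Subgroup
open Cfsg.Agent.Lib.Helper28 (opIn opPrimeIn fitIn)
open Cfsg.Agent.Lib.Helper52.BU (xr cen loc)

variable {G : Type*} [Group G] [Finite G]

/-- (A) `C_W(M_p) = 1` for every `M`-invariant subgroup `W` of `R` of order prime to `|F(H)|`. -/
theorem fixfree {H M R W : Subgroup G} (hH : Cfsg.IsLocalSubgroup H)
    (hHmax : ∀ L : Subgroup G, Cfsg.IsLocalSubgroup L → H ≤ L → L = H) (hM : M ≤ fitIn H)
    (hCM : fitIn H ⊓ centralizer (M : Set G) ≤ M) (hR : Group.IsSolvable R)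
    (hXR : H ⊓ centralizer (fitIn H : Set G) ≤ normalizer (R : Set G))
    (hWR : W ≤ R) (hMW : M ≤ normalizer (W : Set G))
    (hW : (Nat.card W).Coprime (Nat.card (fitIn H))) {p : ℕ} [Fact p.Prime]
    (hp : p ∣ Nat.card (fitIn H)) :
    W ⊓ centralizer ((M ⊓ opIn p H : Subgroup G) : Set G) = ⊥ := by
  set Y := W ⊓ centralizer ((M ⊓ opIn p H : Subgroup G) : Set G) with hYdef
  have hMH : M ≤ H := hM.trans (Cfsg.Agent.Lib.Helper28.fitIn_le H)
  have hYH : Y ≤ H := inf_le_right.trans (loc hH hHmax hM hCM hp)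
  have hYW : Y ≤ W := inf_le_left
  have hYc : (Nat.card Y).Coprime (Nat.card (fitIn H)) :=
    Nat.Coprime.coprime_dvd_left (card_dvd_of_le hYW) hW
  have hMY : M ≤ normalizer (Y : Set G) := by
    refine Cfsg.Agent.Lib.Helper28.le_normalizer_inf' hMW ?_
    refine le_trans ?_ (Cfsg.Agent.Lib.Helper28.normalizer_le_normalizer_centralizer _)
    exact Cfsg.Agent.Lib.Helper28.le_normalizer_inf' le_normalizer
      (hMH.trans (Cfsg.Agent.Lib.Helper28.le_normalizer_opIn p H))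
  have hbot : Y ⊓ fitIn H = ⊥ := (disjoint_of_coprime_natCard hYc).eq_bot
  have hcomm : ⁅Y, M⁆ = ⊥ := by
    rw [eq_bot_iff, ← hbot]
    refine le_inf ?_ ?_
    · exact Subgroup.le_normalizer_iff_commutator_le_left.mp hMY
    · exact (Subgroup.commutator_mono le_rfl hM).trans
        (Subgroup.le_normalizer_iff_commutator_le_right.mp
          (hYH.trans (Cfsg.Agent.Lib.Helper28.le_normalizer_fitIn H)))
  have hYM : Y ≤ centralizer (M : Set G) := Subgroup.commutator_eq_bot_iff_le_centralizer.mp hcomm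
  have hYF : Y ≤ centralizer (fitIn H : Set G) := cen hM hCM hYH hYc hYM
  have h1 : Y ≤ fitIn H := (le_inf (le_inf hYH hYF) (hYW.trans hWR)).trans (xr hR hXR)
  rw [eq_bot_iff, ← hbot]
  exact le_inf le_rfl h1

/-- (B) `M_r ≤ O_{p'}(RM)`. -/
theorem mr_le {H M R : Subgroup G} (hH : Cfsg.IsLocalSubgroup H)
    (hHmax : ∀ L : Subgroup G, Cfsg.IsLocalSubgroup L → H ≤ L → L = H) (hM : M ≤ fitIn H)
    (hCM : fitIn H ⊓ centralizer (M : Set G) ≤ M) (hR : Group.IsSolvable R)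
    (hMR : M ≤ normalizer (R : Set G)) {p r : ℕ} [hpp : Fact p.Prime] [hrp : Fact r.Prime]
    (hp : p ∣ Nat.card (fitIn H)) (hne : r ≠ p) :
    M ⊓ opIn r H ≤ opPrimeIn p (R ⊔ M) := by
  set X := R ⊔ M with hX
  have hMs : Group.IsSolvable M := by
    have h1 : Group.IsNilpotent (fitIn H) := Cfsg.Agent.Lib.Helper28.fitIn_isNilpotent H
    have h2 : Group.IsSolvable (fitIn H) := inferInstance
    exact Cfsg.Agent.Lib.Helper1.isSolvable_of_le hM h2
  have hXs : Group.IsSolvable X := Cfsg.Agent.Lib.Helper27.isSolvable_sup hR hMs hMR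
  set P := M ⊓ opIn p H with hP
  set D := opIn r H ⊓ (X ⊓ centralizer (P : Set G)) with hD
  have hCH : X ⊓ centralizer (P : Set G) ≤ H := inf_le_right.trans (loc hH hHmax hM hCM hp)
  have hDle : D ≤ opPrimeIn p X := by
    refine bal hXs (inf_le_left.trans le_sup_right)
      ((Cfsg.Agent.Lib.Helper28.opIn_isPGroup p H).to_le inf_le_right)
      (inf_le_right.trans inf_le_left) (inf_le_right.trans inf_le_right) ?_ ?_
    · have h1 : IsPGroup r D := (Cfsg.Agent.Lib.Helper28.opIn_isPGroup r H).to_le inf_le_left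
      obtain ⟨n, hn⟩ := IsPGroup.iff_card.mp h1
      rw [hn]
      exact Nat.Coprime.pow_left n ((Nat.coprime_primes hrp.out hpp.out).mpr hne)
    · exact Cfsg.Agent.Lib.Helper28.le_normalizer_inf'
        (hCH.trans (Cfsg.Agent.Lib.Helper28.le_normalizer_opIn r H)) le_normalizer
  refine le_trans (le_inf inf_le_right (le_inf (inf_le_left.trans le_sup_right) ?_)) hDle
  have h1 := Cfsg.Agent.Lib.Helper28.opIn_commutator_opIn (p := p) (r := r) hne H
  exact (inf_le_right.trans (Subgroup.commutator_eq_bot_iff_le_centralizer.mp h1)).trans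
    (centralizer_le inf_le_right)

theorem main (H : Subgroup G) (hH : Cfsg.IsLocalSubgroup H)
    (hHmax : ∀ L : Subgroup G, Cfsg.IsLocalSubgroup L → H ≤ L → L = H)
    (hF2 : 2 ≤ (Nat.card (fitIn H)).primeFactors.card)
    (M : Subgroup G) (hM : M ≤ fitIn H) (hCM : fitIn H ⊓ centralizer (M : Set G) ≤ M)
    (R : Subgroup G) (hR : Group.IsSolvable R) (hMR : M ≤ normalizer (R : Set G))
    (hXR : H ⊓ centralizer (fitIn H : Set G) ≤ normalizer (R : Set G))
    (q : ℕ) [hqp : Fact q.Prime] (hq : ¬ q ∣ Nat.card (fitIn H)) :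
    ∃! Q : Subgroup G, Q ∈ Cfsg.maxInvSubgroups R M {q} ∧
      (∀ Q' : Subgroup G, Q' ∈ Cfsg.maxInvSubgroups R M {q} →
        Q' ≤ Cfsg.piCoreOf (Cfsg.primesNotDvd (Nat.card (fitIn H))) R ∧
        ¬ q ∣ Q'.relIndex (Cfsg.piCoreOf (Cfsg.primesNotDvd (Nat.card (fitIn H))) R)) := by
  set K := Cfsg.piCoreOf (Cfsg.primesNotDvd (Nat.card (fitIn H))) R with hK
  have hKR : K ≤ R := Cfsg.Agent.Lib.Helper30.piCoreOf_le _ _
  have hMK : M ≤ normalizer (K : Set G) :=
    hMR.trans (Cfsg.Agent.Lib.Helper30.normalizer_le_normalizer_piCoreOf _ _)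
  have hFK : (Nat.card (fitIn H)).Coprime (Nat.card K) :=
    Cfsg.Agent.Lib.Helper30.coprime_of_piNat_primesNotDvd
      (Cfsg.Agent.Lib.Helper30.piCoreOf_isPi _ _)
  have hcop : (Nat.card M).Coprime (Nat.card K) :=
    Nat.Coprime.coprime_dvd_left (card_dvd_of_le hM) hFK
  have hKs : Group.IsSolvable K := Cfsg.Agent.Lib.Helper1.isSolvable_of_le hKR hR
  -- two primes
  have hex : ∀ p : ℕ, ∃ r : ℕ, r.Prime ∧ r ∣ Nat.card (fitIn H) ∧ r ≠ p := by
    intro p
    have h1 : 1 < (Nat.card (fitIn H)).primeFactors.card := hF2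
    obtain ⟨a, ha, b, hb, hab⟩ := Finset.one_lt_card.mp h1
    by_cases hap : a = p
    · exact ⟨b, Nat.prime_of_mem_primeFactors hb, Nat.dvd_of_mem_primeFactors hb,
        fun h => hab (hap.trans h.symm)⟩
    · exact ⟨a, Nat.prime_of_mem_primeFactors ha, Nat.dvd_of_mem_primeFactors ha, hap⟩
  have hfix : K ⊓ centralizer (M : Set G) = ⊥ := by
    obtain ⟨r, hr, hrF, -⟩ := hex 0
    have : Fact r.Prime := ⟨hr⟩
    rw [eq_bot_iff, ← fixfree hH hHmax hM hCM hR hXR hKR hMK hFK.symm hrF]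
    exact inf_le_inf_left _ (centralizer_le inf_le_left)
  refine cop hKR hMK hcop hKs hfix ?_
  rintro Q ⟨hQR, hQq, hMQ⟩
  have hQp : IsPGroup q Q := Cfsg.Agent.Lib.Helper30.isPGroup_of_piNat_singleton hQq
  have hQF : (Nat.card Q).Coprime (Nat.card (fitIn H)) := by
    obtain ⟨n, hn⟩ := IsPGroup.iff_card.mp hQp
    rw [hn]
    exact Nat.Coprime.pow_left n ((Nat.Prime.coprime_iff_not_dvd hqp.out).mpr hq)
  set X := R ⊔ M with hX
  have hQall : ∀ p : ℕ, p.Prime → p ∣ Nat.card (fitIn H) → Q ≤ opPrimeIn p X := by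
    intro p hp hpF
    have : Fact p.Prime := ⟨hp⟩
    obtain ⟨r, hr, hrF, hrp⟩ := hex p
    have : Fact r.Prime := ⟨hr⟩
    have h1 := mr_le hH hHmax hM hCM hR hMR hpF hrp
    have h2 := fixfree hH hHmax hM hCM hR hXR hQR hMQ hQF hrF
    have hMrQ : M ⊓ opIn r H ≤ normalizer (Q : Set G) := inf_le_left.trans hMQ
    have hc : (Nat.card (M ⊓ opIn r H : Subgroup G)).Coprime (Nat.card Q) :=
      Nat.Coprime.coprime_dvd_left (card_dvd_of_le (inf_le_left.trans hM)) hQF.symm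
    have h3 := Cfsg.Agent.Lib.Helper1.coprime_commutator_sup_centralizer (M ⊓ opIn r H) Q hMrQ hc
      (Or.inr (Cfsg.Agent.Lib.Helper1.isSolvable_of_le hQR hR))
    rw [h2, sup_bot_eq] at h3
    rw [← h3]
    refine (Subgroup.commutator_mono le_rfl h1).trans ?_
    exact Subgroup.le_normalizer_iff_commutator_le_right.mp
      ((hQR.trans le_sup_left).trans (Cfsg.Agent.Lib.Helper28.le_normalizer_opPrimeIn p X))
  -- the normal π'-subgroup
  set N : Subgroup G := R ⊓ ⨅ p : {p : ℕ // p.Prime ∧ p ∣ Nat.card (fitIn H)}, opPrimeIn p.1 X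
    with hN
  have hQN : Q ≤ N := le_inf hQR (le_iInf fun p => hQall p.1 p.2.1 p.2.2)
  have hRN : R ≤ normalizer (N : Set G) := by
    refine Cfsg.Agent.Lib.Helper28.le_normalizer_inf' le_normalizer ?_
    intro g hg
    rw [Subgroup.mem_normalizer_iff]
    intro x
    simp only [Subgroup.mem_iInf]
    constructor
    · intro hx p
      exact (Subgroup.mem_normalizer_iff.mp
        (Cfsg.Agent.Lib.Helper28.le_normalizer_opPrimeIn p.1 X (le_sup_left (a := R) hg)) x).mp (hx p)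
    · intro hx p
      exact (Subgroup.mem_normalizer_iff.mp
        (Cfsg.Agent.Lib.Helper28.le_normalizer_opPrimeIn p.1 X (le_sup_left (a := R) hg)) x).mpr (hx p)
  have hNpi : Cfsg.Agent.Lib.Helper30.PiNat (Cfsg.primesNotDvd (Nat.card (fitIn H)))
      (Nat.card N) := by
    intro s hs hsN
    refine ⟨hs, fun hsF => ?_⟩
    have h1 : N ≤ opPrimeIn s X := inf_le_right.trans
      (iInf_le (fun p : {p : ℕ // p.Prime ∧ p ∣ Nat.card (fitIn H)} => opPrimeIn p.1 X) ⟨s, hs, hsF⟩)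
    have h2 : (Nat.card (opPrimeIn s X)).Coprime s :=
      Cfsg.Agent.Lib.Helper28.opPrimeIn_coprime s X
    have h3 : s ∣ Nat.card (opPrimeIn s X) := hsN.trans (card_dvd_of_le h1)
    exact (Nat.Prime.coprime_iff_not_dvd hs).mp h2.symm h3
  exact hQN.trans (Cfsg.Agent.Lib.Helper30.le_piCoreOf inf_le_left hRN hNpi)

end Cfsg.Agent.Lib.Helper40.BU
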